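import Cfsg.Agent.H70.Steinberg.Universal

/-!
# The cover is universal
-/

set_option autoImplicit false

namespace Cfsg.Agent.H70.Steinberg

open Cfsg.Lie Cfsg.Agent.H46

variable {D : ChevalleyDatum} {F : Type*} [Field F]

/-- Every central extension of the cover has a section. -/
theorem exists_section (G : Good D) (hD : D ∈ [chevG2, chevB2, chevD4, chevF4, chevE6, chevE7, chevE8])
    (hF : ∃ s : Finset F, 4 < s.card) {E : Type*} [Group E] {ψ : E →* D.SteinbergCover F}
    (hs : Function.Surjective ψ) (hc : ψ.ker ≤ Subgroup.center E) :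
    ∃ σ : D.SteinbergCover F →* E, ψ.comp σ = MonoidHom.id _ := by
  set P := coverPres G (F := F) with hP
  have hperf : commutator (D.SteinbergCover F) = ⊤ := perfect_of_mem P hD fun _ => by
    obtain ⟨c, hc0, hc2⟩ := (exists_units hF).1
    exact ⟨c, hc0, fun h => hc2 (by rw [h, one_pow])⟩
  obtain ⟨hangle, hself⟩ := checks_of_mem hD
  obtain ⟨f, hψf, hadd, hgood⟩ := P.exists_lifts (cert_of_mem hD) hF (⟨hs, hc, hperf⟩ : CExt ψ) hangle hself
  let φ : Fin D.nroots × F → E := fun p => f p.1.val p.2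
  have hX : ∀ r, r < D.nroots → ∀ t : F, FreeGroup.lift φ (D.stX r t) = f r t := fun r hr t => by
    simp [ChevalleyDatum.stX, hr, φ]
  have hW : ∀ w : List (ℕ × F), (∀ p ∈ w, p.1 < D.nroots) → FreeGroup.lift φ (D.stWord w) = wordEval f w := by
    intro w hw
    induction w with
    | nil => simp [ChevalleyDatum.stWord, wordEval]
    | cons p w ih =>
      have ih' := ih fun q hq => hw q (List.mem_cons_of_mem _ hq)
      simp only [ChevalleyDatum.stWord, wordEval, List.map_cons, List.prod_cons, map_mul] at ih' ⊢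
      rw [ih', hX _ (hw p List.mem_cons_self)]
  have hrel : ∀ g ∈ D.steinbergRelsAB F, FreeGroup.lift φ g = 1 := by
    rintro g (⟨r, t, u, hr, rfl⟩ | ⟨r, s, t, u, hr, hsn, h1, h2, rfl⟩)
    · simp only [map_mul, map_inv, hX r hr, hadd r hr, mul_inv_cancel]
    · simp only [map_mul, map_inv, hX r hr, hX s hsn, hW _ (commWord_lt G hr hsn t u)]
      rw [mul_assoc (_ * _) (f s u) (f r t), hgood r s hr hsn h1 h2 t u]
      group
  refine ⟨PresentedGroup.toGroup hrel, P.hom_ext fun r hr t => ?_⟩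
  rw [MonoidHom.comp_apply, MonoidHom.id_apply]
  show ψ (FreeGroup.lift φ (D.stX r t)) = _
  rw [hX r hr, hψf r hr]

/-- Lifts from the cover along central extensions exist and are unique. -/
theorem existsUnique_lift (hD : D ∈ [chevG2, chevB2, chevD4, chevF4, chevE6, chevE7, chevE8])
    (hF : ∃ s : Finset F, 4 < s.card) {G₁ E : Type*} [Group G₁] [Group E] (π₁ : E →* G₁)
    (hπ : Function.Surjective π₁) (hc : π₁.ker ≤ Subgroup.center E) (σ : D.SteinbergCover F →* G₁) :
    ∃! τ : D.SteinbergCover F →* E, π₁.comp τ = σ := by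
  obtain ⟨G⟩ := good_of_mem hD
  let S : Subgroup (D.SteinbergCover F × E) := (σ.comp (MonoidHom.fst _ E)).eqLocus (π₁.comp (MonoidHom.snd _ E))
  let ψ : S →* D.SteinbergCover F := (MonoidHom.fst _ E).comp S.subtype
  have hψs : Function.Surjective ψ := fun d => by
    obtain ⟨e, he⟩ := hπ (σ d)
    exact ⟨⟨(d, e), he.symm⟩, rfl⟩
  have hψc : ψ.ker ≤ Subgroup.center S := by
    rintro ⟨⟨d, e⟩, he⟩ hd
    obtain rfl : d = 1 := hd
    have hcen := Subgroup.mem_center_iff.1 (hc (show π₁ e = 1 by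
      rw [← map_one σ]; exact (show σ 1 = π₁ e from he).symm))
    rw [Subgroup.mem_center_iff]
    rintro ⟨⟨d', e'⟩, _⟩
    exact Subtype.ext (Prod.ext (by simp) (hcen e'))
  obtain ⟨s, hs⟩ := exists_section G hD hF hψs hψc
  refine ⟨(MonoidHom.snd _ E).comp (S.subtype.comp s), ?_, fun τ hτ => ?_⟩
  · refine MonoidHom.ext fun d => ?_
    have h1 : σ (s d).1.1 = π₁ (s d).1.2 := (s d).2
    have h2 : (s d).1.1 = d := DFunLike.congr_fun hs d
    rw [h2] at h1
    exact h1.symm
  · have hperf : commutator (D.SteinbergCover F) = ⊤ := perfect_of_mem (coverPres G) hD fun _ => by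
      obtain ⟨c, hc0, hc2⟩ := (exists_units hF).1
      exact ⟨c, hc0, fun h => hc2 (by rw [h, one_pow])⟩
    set τ' := (MonoidHom.snd _ E).comp (S.subtype.comp s)
    have hτ' : π₁.comp τ' = σ := by
      refine MonoidHom.ext fun d => ?_
      have h1 : σ (s d).1.1 = π₁ (s d).1.2 := (s d).2
      have h2 : (s d).1.1 = d := DFunLike.congr_fun hs d
      rw [h2] at h1
      exact h1.symm
    have hz : ∀ d, τ d * (τ' d)⁻¹ ∈ Subgroup.center E := fun d => hc (by
      rw [MonoidHom.mem_ker, map_mul, map_inv, ← MonoidHom.comp_apply, hτ, ← MonoidHom.comp_apply, hτ',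
        mul_inv_cancel])
    let δ : D.SteinbergCover F →* Subgroup.center E := MonoidHom.mk' (fun d => ⟨τ d * (τ' d)⁻¹, hz d⟩) fun a b => by
      apply Subtype.ext
      show τ (a * b) * (τ' (a * b))⁻¹ = τ a * (τ' a)⁻¹ * (τ b * (τ' b)⁻¹)
      have h := Subgroup.mem_center_iff.1 (hz b) (τ' a)⁻¹
      rw [map_mul, map_mul, mul_inv_rev, mul_assoc (τ a) (τ' a)⁻¹, h]
      group
    have hker : commutator (D.SteinbergCover F) ≤ δ.ker := by
      rw [commutator_def, Subgroup.commutator_le]
      intro a _ b _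
      rw [MonoidHom.mem_ker, map_commutatorElement, commutatorElement_eq_one_iff_mul_comm]
      exact Subtype.ext (Subgroup.mem_center_iff.1 (δ b).2 (δ a).1)
    refine MonoidHom.ext fun d => ?_
    exact mul_inv_eq_one.1 (congrArg Subtype.val (MonoidHom.mem_ker.1 (hker (hperf ▸ Subgroup.mem_top d))))

end Cfsg.Agent.H70.Steinberg
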