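import Cfsg.Agent.H70.Steinberg.Scaler

/-!
# Lifting the root elements to a central extension
-/

set_option autoImplicit false

namespace Cfsg.Agent.H70.Steinberg

open Cfsg.Lie Cfsg.Agent.H46
open scoped commutatorElement

section Central

variable {E Γ : Type*} [Group E] [Group Γ]

/-- A central extension of a perfect group. -/
structure CExt (ψ : E →* Γ) : Prop where
  surj : Function.Surjective ψ
  central : ψ.ker ≤ Subgroup.center E
  perfect : commutator Γ = ⊤

namespace CExt

variable {ψ : E →* Γ} (C : CExt ψ)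

include C

/-- A chosen lift. -/
noncomputable def lift (g : Γ) : E := Function.surjInv C.surj g

theorem ψ_lift (g : Γ) : ψ (C.lift g) = g := Function.surjInv_eq C.surj g

theorem ker_commute {z : E} (hz : ψ z = 1) (x : E) : Commute z x :=
  (Subgroup.mem_center_iff.1 (C.central hz) x).symm

theorem bracket_congr {y y' w w' : E} (hy : ψ y = ψ y') (hw : ψ w = ψ w') : ⁅y, w⁆ = ⁅y', w'⁆ := by
  obtain ⟨a, ha, rfl⟩ : ∃ a, ψ a = 1 ∧ y = y' * a := ⟨y'⁻¹ * y, by simp [hy], by group⟩
  obtain ⟨b, hb, rfl⟩ : ∃ b, ψ b = 1 ∧ w = w' * b := ⟨w'⁻¹ * w, by simp [hw], by group⟩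
  have e1 := (C.ker_commute ha (w' * b)).eq
  have e2 := (C.ker_commute hb y'⁻¹).eq
  calc ⁅y' * a, w' * b⁆ = y' * (a * (w' * b)) * a⁻¹ * y'⁻¹ * b⁻¹ * w'⁻¹ := by rw [commutatorElement_def]; group
    _ = y' * w' * (b * y'⁻¹) * b⁻¹ * w'⁻¹ := by rw [e1]; group
    _ = ⁅y', w'⁆ := by rw [e2, commutatorElement_def]; group

theorem commute_of_center {y : E} (hy : ψ y ∈ Subgroup.center Γ) (w : E) : Commute y w := by
  have hker : ∀ a : E, ⁅y, a⁆ ∈ Subgroup.center E := fun a => C.central (by
    rw [MonoidHom.mem_ker, map_commutatorElement, commutatorElement_eq_one_iff_mul_comm]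
    exact (Subgroup.mem_center_iff.1 hy _).symm)
  let β : E →* Subgroup.center E := MonoidHom.mk' (fun a => ⟨⁅y, a⁆, hker a⟩) fun a b => by
    apply Subtype.ext
    show ⁅y, a * b⁆ = ⁅y, a⁆ * ⁅y, b⁆
    have h := Subgroup.mem_center_iff.1 (hker b) a
    calc ⁅y, a * b⁆ = ⁅y, a⁆ * (a * ⁅y, b⁆ * a⁻¹) := by simp only [commutatorElement_def]; group
      _ = ⁅y, a⁆ * ⁅y, b⁆ := by rw [h, mul_inv_cancel_right]
  have h1 : ψ w ∈ (commutator E).map ψ := by
    rw [commutator_def, Subgroup.map_commutator, ← MonoidHom.range_eq_map, MonoidHom.range_eq_top.2 C.surj,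
      ← commutator_def, C.perfect]
    exact Subgroup.mem_top _
  obtain ⟨c, hc, hcw⟩ := h1
  have hle : commutator E ≤ β.ker := by
    rw [commutator_def, Subgroup.commutator_le]
    intro a _ b _
    rw [MonoidHom.mem_ker, map_commutatorElement, commutatorElement_eq_one_iff_mul_comm]
    exact Subtype.ext (Subgroup.mem_center_iff.1 (β b).2 (β a).1)
  have hβ : β c = 1 := MonoidHom.mem_ker.1 (hle hc)
  have e : ⁅y, w⁆ = 1 := by
    rw [C.bracket_congr (y' := y) (w' := c) rfl hcw.symm]
    exact congrArg Subtype.val hβ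
  exact commutatorElement_eq_one_iff_mul_comm.1 e

end CExt

end Central

variable {D : ChevalleyDatum} {F : Type*} [Field F]

theorem exists_avoid (hF : ∃ s : Finset F, 4 < s.card) (p : Polynomial F) (hp : p ≠ 0) (hdeg : p.natDegree ≤ 4) :
    ∃ x : F, p.eval x ≠ 0 := by
  obtain ⟨s, hs⟩ := hF
  by_contra h
  simp only [not_exists, not_not] at h
  exact hp (Polynomial.eq_zero_of_natDegree_lt_card_of_eval_eq_zero' p s (fun x _ => h x) (by omega))

open Polynomial in
theorem exists_units (hF : ∃ s : Finset F, 4 < s.card) :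
    (∃ c : F, c ≠ 0 ∧ c ^ 2 ≠ 1) ∧ (∃ c : F, c ≠ 0 ∧ c ^ 3 ≠ 1) ∧
      ∃ d : F, d ≠ 0 ∧ 1 + d ≠ 0 ∧ d ^ 2 + d + 1 ≠ 0 := by
  refine ⟨?_, ?_, ?_⟩
  · obtain ⟨x, hx⟩ := exists_avoid hF (X ^ 3 - X : F[X])
      (fun h => by have := congrArg (Polynomial.coeff · 3) h; simp [coeff_X] at this) (by compute_degree!)
    simp only [eval_sub, eval_pow, eval_X] at hx
    exact ⟨x, fun h => hx (by subst h; ring), fun h => hx (by rw [pow_succ, h]; ring)⟩
  · obtain ⟨x, hx⟩ := exists_avoid hF (X ^ 4 - X : F[X])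
      (fun h => by have := congrArg (Polynomial.coeff · 4) h; simp [coeff_X] at this) (by compute_degree!)
    simp only [eval_sub, eval_pow, eval_X] at hx
    exact ⟨x, fun h => hx (by subst h; ring), fun h => hx (by rw [pow_succ, h]; ring)⟩
  · obtain ⟨x, hx⟩ := exists_avoid hF (X ^ 4 + C 2 * X ^ 3 + C 2 * X ^ 2 + X : F[X])
      (fun h => by have := congrArg (Polynomial.coeff · 4) h; simp [coeff_X] at this) (by compute_degree!)
    simp only [eval_add, eval_mul, eval_pow, eval_X, eval_C] at hx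
    refine ⟨x, fun h => hx (by subst h; ring), fun h => hx ?_, fun h => hx ?_⟩
    · linear_combination (x ^ 3 + x ^ 2 + x) * h
    · linear_combination (x ^ 2 + x) * h

namespace Pres

variable {G : Good D} {Γ : Type*} [Group Γ] (P : Pres G F Γ) (hcert : Cert D)
  (hF : ∃ s : Finset F, 4 < s.card) {E : Type*} [Group E] {ψ : E →* Γ} (C : CExt ψ)

include P C

theorem bracket_X_add {r : ℕ} (hr : r < D.nroots) (t t' u : F) :
    ⁅C.lift (P.X r (t + t')), C.lift (P.X r u)⁆ =
      ⁅C.lift (P.X r t), C.lift (P.X r u)⁆ * ⁅C.lift (P.X r t'), C.lift (P.X r u)⁆ := by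
  have hz : ∀ t u : F, ψ ⁅C.lift (P.X r t), C.lift (P.X r u)⁆ = 1 := fun t u => by
    rw [map_commutatorElement, C.ψ_lift, C.ψ_lift, commutatorElement_eq_one_iff_mul_comm, ← P.X_add r hr, ← P.X_add r hr,
      add_comm]
  rw [C.bracket_congr (y' := C.lift (P.X r t) * C.lift (P.X r t')) (w' := C.lift (P.X r u))
    (by rw [map_mul, C.ψ_lift, C.ψ_lift, C.ψ_lift, P.X_add r hr]) rfl]
  have h := (C.ker_commute (hz t' u) (C.lift (P.X r t))).eq
  calc ⁅C.lift (P.X r t) * C.lift (P.X r t'), C.lift (P.X r u)⁆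
      = (C.lift (P.X r t) * ⁅C.lift (P.X r t'), C.lift (P.X r u)⁆ * (C.lift (P.X r t))⁻¹) *
          ⁅C.lift (P.X r t), C.lift (P.X r u)⁆ := by simp only [commutatorElement_def]; group
    _ = _ := by rw [← h, mul_inv_cancel_right, (C.ker_commute (hz t u) _).eq]

theorem bracket_scale {r : ℕ} (hr : r < D.nroots) {h : Γ} {a : F}
    (hh : ∀ t : F, h * P.X r t * h⁻¹ = P.X r (a * t)) (t u : F) :
    ⁅C.lift (P.X r (a * t)), C.lift (P.X r (a * u))⁆ = ⁅C.lift (P.X r t), C.lift (P.X r u)⁆ := by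
  have hz : ψ ⁅C.lift (P.X r t), C.lift (P.X r u)⁆ = 1 := by
    rw [map_commutatorElement, C.ψ_lift, C.ψ_lift, commutatorElement_eq_one_iff_mul_comm, ← P.X_add r hr, ← P.X_add r hr,
      add_comm]
  calc ⁅C.lift (P.X r (a * t)), C.lift (P.X r (a * u))⁆
      = ⁅C.lift h * C.lift (P.X r t) * (C.lift h)⁻¹, C.lift h * C.lift (P.X r u) * (C.lift h)⁻¹⁆ :=
        C.bracket_congr (by simp [C.ψ_lift, hh]) (by simp [C.ψ_lift, hh])
    _ = C.lift h * ⁅C.lift (P.X r t), C.lift (P.X r u)⁆ * (C.lift h)⁻¹ := by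
        simp only [commutatorElement_def]; group
    _ = _ := by rw [← (C.ker_commute hz (C.lift h)).eq, mul_inv_cancel_right]

include hcert hF

/-- Lifts of elements of one root group commute. -/
theorem commute_same (hchk : chkSelf D = true) {r : ℕ} (hr : r < D.nroots) {y w : E} {t u : F}
    (hy : ψ y = P.X r t) (hw : ψ w = P.X r u) : Commute y w := by
  rw [← commutatorElement_eq_one_iff_commute,
    C.bracket_congr (y' := C.lift (P.X r t)) (w' := C.lift (P.X r u)) (by rw [hy, C.ψ_lift]) (by rw [hw, C.ψ_lift])]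
  clear hy hw y w
  obtain ⟨-, -, d0, hd0, hd1, hd2⟩ := exists_units hF
  -- invariance under a square-free or squared scaling family makes the bracket vanish
  have radical : ∀ d : F, d ≠ 0 → 1 + d ≠ 0 → d ^ 2 + d + 1 ≠ 0 →
      (∀ a, a = d ∨ a = 1 + d → ∀ t u : F,
        ⁅C.lift (P.X r (a * t)), C.lift (P.X r (a * u))⁆ = ⁅C.lift (P.X r t), C.lift (P.X r u)⁆) →
      ∀ t u : F, ⁅C.lift (P.X r t), C.lift (P.X r u)⁆ = 1 := by
    intro d hd hd' hm hinv t u
    set b := fun t u => ⁅C.lift (P.X r t), C.lift (P.X r u)⁆ with hb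
    have hadd2 : ∀ t u u', b t (u + u') = b t u * b t u' := by
      intro t u u'
      simp only [hb]
      rw [← inv_inj, mul_inv_rev, commutatorElement_inv, commutatorElement_inv, commutatorElement_inv, P.bracket_X_add C hr]
      exact (C.ker_commute (by rw [map_commutatorElement, C.ψ_lift, C.ψ_lift, commutatorElement_eq_one_iff_mul_comm,
        ← P.X_add r hr, ← P.X_add r hr, add_comm]) _).eq
    have hmove : ∀ a, a = d ∨ a = 1 + d → a ≠ 0 → ∀ t w, b (a * t) w = b t (w / a) := by
      intro a ha ha0 t w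
      have := hinv a ha t (w / a)
      rwa [mul_div_cancel₀ _ ha0] at this
    have key : ∀ t w, b t (w / (1 + d)) = b t (w + w / d) := by
      intro t w
      rw [← hmove _ (Or.inr rfl) hd', hadd2, ← hmove _ (Or.inl rfl) hd, add_mul, one_mul]
      exact P.bracket_X_add C hr t (d * t) w
    have key2 := key t (u * (d * (1 + d)) / (d ^ 2 + d + 1))
    set w := u * (d * (1 + d)) / (d ^ 2 + d + 1)
    have e : w + w / d = w / (1 + d) + u := by
      have hwm : w * (d ^ 2 + d + 1) = u * (d * (1 + d)) := div_mul_cancel₀ _ hm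
      field_simp
      linear_combination hwm
    rw [e, hadd2] at key2
    exact left_eq_mul.1 key2
  simp only [chkSelf, List.all_eq_true, List.mem_range, Bool.or_eq_true, List.any_eq_true, decide_eq_true_eq,
    Bool.and_eq_true] at hchk
  rcases hchk r hr with ⟨j, hj, hA | ⟨k, hk, hA⟩⟩ | ⟨a, ha, b, hb, ⟨⟨⟨⟨⟨⟨⟨hba, hbn⟩, har⟩, han⟩, hbr⟩, hbn'⟩, hra⟩, hrb⟩, hm⟩
  · refine radical d0 hd0 hd1 hd2 (fun c hc t u => ?_) t u
    have hc0 : c ≠ 0 := by rcases hc with rfl | rfl <;> assumption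
    rcases Int.natAbs_eq_iff.1 hA with e | e
    · refine P.bracket_scale C hr (h := P.H (D.simple j) c) (fun t => ?_) t u
      rw [P.H_conj hcert hj hc0 hr, e]
      norm_num
    · refine P.bracket_scale C hr (h := P.H (D.simple j) c⁻¹) (fun t => ?_) t u
      rw [P.H_conj hcert hj (inv_ne_zero hc0) hr, e]
      norm_num
  · refine radical d0 hd0 hd1 hd2 (fun c hc t u => ?_) t u
    have hc0 : c ≠ 0 := by rcases hc with rfl | rfl <;> assumption
    have two : ∀ e : F, e ≠ 0 → ∀ t : F, P.H (D.simple j) e * P.H (D.simple k) e * P.X r t *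
        (P.H (D.simple j) e * P.H (D.simple k) e)⁻¹ = P.X r (e ^ (D.cartan j r + D.cartan k r) * t) := by
      intro e he t
      rw [show ∀ x y z : Γ, x * y * z * (x * y)⁻¹ = x * (y * z * y⁻¹) * x⁻¹ from fun x y z => by group,
        P.H_conj hcert hk he hr, P.H_conj hcert hj he hr, zpow_add₀ he, mul_assoc]
    rcases Int.natAbs_eq_iff.1 hA with e | e
    · refine P.bracket_scale C hr (h := P.H (D.simple j) c * P.H (D.simple k) c) (fun t => ?_) t u
      rw [two c hc0, e]
      norm_num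
    · refine P.bracket_scale C hr (h := P.H (D.simple j) c⁻¹ * P.H (D.simple k) c⁻¹) (fun t => ?_) t u
      rw [two _ (inv_ne_zero hc0), e]
      norm_num
  · split at hm
    · rename_i c v hL
      simp only [Bool.and_eq_true, decide_eq_true_eq] at hm
      obtain ⟨rfl, hv⟩ := hm
      by_cases h2 : (2 : F) = 0
      · have hsq : ∀ e : F, e ≠ 0 → ∀ t u : F,
            ⁅C.lift (P.X c (e ^ 2 * t)), C.lift (P.X c (e ^ 2 * u))⁆ = ⁅C.lift (P.X c t), C.lift (P.X c u)⁆ := by
          intro e he t u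
          obtain ⟨h, hh⟩ := P.exists_scaler hcert (fun k => G.tab.cor c k) he
          refine P.bracket_scale C hr (h := h) (fun t => ?_) t u
          rw [hh c hr, weight_cor G hr hr, G.pairing_self hr]
          norm_cast
        refine radical (d0 ^ 2) (pow_ne_zero 2 hd0) ?_ ?_ (fun a ha => ?_) t u
        · rw [show (1 : F) + d0 ^ 2 = (1 + d0) ^ 2 by linear_combination (-d0) * h2]
          exact pow_ne_zero 2 hd1
        · rw [show (d0 ^ 2) ^ 2 + d0 ^ 2 + 1 = (d0 ^ 2 + d0 + 1) ^ 2 by linear_combination (-(d0 ^ 3 + d0 ^ 2 + d0)) * h2]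
          exact pow_ne_zero 2 hd2
        · rcases ha with rfl | rfl
          · exact hsq d0 hd0
          · rw [show (1 : F) + d0 ^ 2 = (1 + d0) ^ 2 by linear_combination (-d0) * h2]
            exact hsq _ hd1
      · have hv0 : (v : F) ≠ 0 := by
          rcases Int.natAbs_eq_iff.1 hv with e | e <;> simp [e, h2]
        set s := -(u / (v : F))
        have hx := P.conj_X ha hb hba hbn s 1
        have hw : wordEval P.X (D.commWord F a b s 1) = P.X c u := by
          simp only [ChevalleyDatum.commWord, hL, wordEval, List.map_cons, List.map_nil, List.prod_cons, List.prod_nil,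
            pow_one, one_pow, mul_one, s, neg_neg]
          rw [mul_div_cancel₀ _ hv0]
        rw [hw] at hx
        have e : P.X c u = ⁅(P.X b 1)⁻¹, (P.X a s)⁻¹⁆ := by
          rw [show P.X c u = (P.X b 1)⁻¹ * ((P.X a s)⁻¹ * P.X b 1 * P.X a s) by rw [hx, inv_mul_cancel_left],
            commutatorElement_def]
          group
        have fix : ∀ d (v : F), d < D.nroots → d ≠ c → d ≠ D.neg c → D.commTerms c d = [] →
            P.X c t * P.X d v * (P.X c t)⁻¹ = P.X d v := by
          intro d v hd h1 h2' h3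
          have := P.conj_X hr hd h1 h2' (-t) v
          rw [P.X_neg hr, inv_inv, ChevalleyDatum.commWord, h3] at this
          rw [this]; simp [wordEval]
        set x := C.lift (P.X c t)
        set Y := C.lift (P.X b 1)⁻¹
        set W := C.lift (P.X a s)⁻¹
        rw [C.bracket_congr (y' := x) (w' := ⁅Y, W⁆) rfl (by rw [map_commutatorElement, C.ψ_lift, C.ψ_lift, C.ψ_lift, e]),
          commutatorElement_eq_one_iff_mul_comm, ← mul_inv_eq_iff_eq_mul,
          show x * ⁅Y, W⁆ * x⁻¹ = ⁅x * Y * x⁻¹, x * W * x⁻¹⁆ by simp only [commutatorElement_def]; group]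
        refine C.bracket_congr ?_ ?_
        · simp only [x, Y, map_mul, map_inv, C.ψ_lift]
          rw [← P.X_neg hb]; exact fix b _ hb hbr hbn' hrb
        · simp only [x, W, map_mul, map_inv, C.ψ_lift]
          rw [← P.X_neg ha]; exact fix a _ ha har han hra
    · simp at hm

end Pres

end Cfsg.Agent.H70.Steinberg
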