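import Cfsg.Agent.H70.Steinberg.CoverUniversal

/-!
# Lifts of order `p` in natural characteristic, and lifting projective representations
-/

set_option autoImplicit false

namespace Cfsg.Agent.H70.Steinberg

open Cfsg.Lie Cfsg.Agent.H46
open scoped commutatorElement MatrixGroups

variable {D : ChevalleyDatum} {F : Type*} [Field F]

/-- Two homomorphisms from a perfect group agreeing modulo a central subgroup agree. -/
theorem hom_eq_of_perfect {A E Q : Type*} [Group A] [Group E] [Group Q] (hperf : commutator A = ⊤) {ψ : E →* Q}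
    (hc : ψ.ker ≤ Subgroup.center E) {f g : A →* E} (h : ψ.comp f = ψ.comp g) : f = g := by
  have hz : ∀ a, f a * (g a)⁻¹ ∈ Subgroup.center E := fun a => hc (by
    rw [MonoidHom.mem_ker, map_mul, map_inv, ← MonoidHom.comp_apply, h, MonoidHom.comp_apply, mul_inv_cancel])
  let δ : A →* Subgroup.center E := MonoidHom.mk' (fun a => ⟨f a * (g a)⁻¹, hz a⟩) fun a b => by
    apply Subtype.ext
    show f (a * b) * (g (a * b))⁻¹ = f a * (g a)⁻¹ * (f b * (g b)⁻¹)
    have h := Subgroup.mem_center_iff.1 (hz b) (g a)⁻¹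
    rw [map_mul, map_mul, mul_inv_rev, mul_assoc (f a) (g a)⁻¹, h]
    group
  have hker : commutator A ≤ δ.ker := by
    rw [commutator_def, Subgroup.commutator_le]
    intro a _ b _
    rw [MonoidHom.mem_ker, map_commutatorElement, commutatorElement_eq_one_iff_mul_comm]
    exact Subtype.ext (Subgroup.mem_center_iff.1 (δ b).2 (δ a).1)
  exact MonoidHom.ext fun a => mul_inv_eq_one.1 (congrArg Subtype.val (MonoidHom.mem_ker.1 (hker (hperf ▸ Subgroup.mem_top a))))

namespace Pres

variable {G : Good D} {Γ : Type*} [Group Γ] (P : Pres G F Γ) {E Q : Type*} [Group E] [Group Q]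

include P

/-- Lifts of exponent `p` through an extension whose kernel has no `p`-torsion satisfy (R1), (R2). -/
theorem exists_plifts (hangle : chkAngle D = true) {p : ℕ} (ρ : Γ →* Q) (ψ : E →* Q)
    (hc : ψ.ker ≤ Subgroup.center E) (htf : ∀ z : E, ψ z = 1 → z ^ p = 1 → z = 1)
    (hex : ∀ r, r < D.nroots → ∀ t, ∃ y : E, ψ y = ρ (P.X r t) ∧ y ^ p = 1) :
    ∃ f : ℕ → F → E, (∀ r, r < D.nroots → ∀ t, ψ (f r t) = ρ (P.X r t)) ∧
      (∀ r, r < D.nroots → ∀ t u, f r (t + u) = f r t * f r u) ∧
      ∀ r s, r < D.nroots → s < D.nroots → s ≠ r → s ≠ D.neg r → Good2 D f r s := by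
  classical
  let f : ℕ → F → E := fun r t => if h : r < D.nroots then (hex r h t).choose else 1
  have hψf : ∀ r, r < D.nroots → ∀ t, ψ (f r t) = ρ (P.X r t) := fun r hr t => by
    simp only [f, dif_pos hr]; exact (hex r hr t).choose_spec.1
  have hpf : ∀ r, r < D.nroots → ∀ t, f r t ^ p = 1 := fun r hr t => by
    simp only [f, dif_pos hr]; exact (hex r hr t).choose_spec.2
  have hcz : ∀ z, ψ z = 1 → ∀ x : E, Commute z x := fun z hz x => (Subgroup.mem_center_iff.1 (hc hz) x).symm
  have huniq : ∀ y y' : E, ψ y = ψ y' → y ^ p = 1 → y' ^ p = 1 → y = y' := by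
    intro y y' h hy hy'
    have hz : ψ (y'⁻¹ * y) = 1 := by rw [map_mul, map_inv, h, inv_mul_cancel]
    have e : y = y' * (y'⁻¹ * y) := by group
    have := htf _ hz (by rw [e, ((hcz _ hz y').symm).mul_pow, hy', one_mul] at hy; exact hy)
    exact (inv_mul_eq_one.1 this).symm
  have hadd : ∀ r, r < D.nroots → ∀ t u, f r (t + u) = f r t * f r u := by
    intro r hr t u
    have hcomm : Commute (f r t) (f r u) := by
      have e : f r t * f r u * (f r t)⁻¹ = f r u := by
        refine huniq _ _ ?_ (by rw [conj_pow, hpf r hr, mul_one, mul_inv_cancel]) (hpf r hr u)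
        rw [map_mul, map_mul, map_inv, hψf r hr, hψf r hr, ← map_inv, ← map_mul, ← map_mul, ← P.X_add r hr, add_comm,
          P.X_add r hr, mul_inv_cancel_right]
      exact mul_inv_eq_iff_eq_mul.1 e
    refine huniq _ _ ?_ (hpf r hr _) ?_
    · rw [map_mul, hψf r hr, hψf r hr, hψf r hr, P.X_add r hr, map_mul]
    · rw [hcomm.mul_pow, hpf r hr, hpf r hr, one_mul]
  refine ⟨f, hψf, hadd, ?_⟩
  -- exponents of closed positive sets
  have hexp : ∀ (L : (Fin D.rank → ℤ) →ₗ[ℤ] ℤ) (T : Finset ℕ), T ⊆ P.posSet L →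
      (∀ r ∈ T, ∀ s ∈ T, ∀ q ∈ D.commTerms r s, q.1 ∈ T) → (∀ r ∈ T, ∀ s ∈ T, s ≠ r → Good2 D f r s) →
      ∀ g ∈ liftSub f T, ∃ k : ℕ, g ^ p ^ k = 1 := by
    intro L T
    induction T using Finset.strongInduction with
    | H T ih =>
      intro hTp hcl hgood g hg
      rcases T.eq_empty_or_nonempty with rfl | hne
      · exact ⟨0, by simpa [liftSub] using hg⟩
      obtain ⟨c, hcT, hmin⟩ := T.exists_min_image (fun r => L (G.rc r)) hne
      have hmem : ∀ r ∈ T, r < D.nroots ∧ 0 < L (G.rc r) := fun r hr => by simpa [posSet] using hTp hr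
      obtain ⟨hc', hc0⟩ := hmem c hcT
      have f0 : f c 0 = 1 := by have := hadd c hc' 0 0; rwa [add_zero, left_eq_mul] at this
      have hout : ∀ r ∈ T, ∀ s ∈ T, ∀ q ∈ D.commTerms r s, q.1 ∈ T.erase c := fun r hr s hs q hq => by
        refine Finset.mem_erase.2 ⟨fun e => ?_, hcl r hr s hs q hq⟩
        obtain ⟨-, hi, hj, hL⟩ := P.L_comm L (hmem r hr).1 (hmem s hs).1 hq
        rw [e] at hL
        have := hmin r hr; have := hmin s hs
        have h1 : L (G.rc r) ≤ (q.2.2.1 : ℤ) * L (G.rc r) := le_mul_of_one_le_left (hmem r hr).2.le (by omega)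
        have h2 : L (G.rc s) ≤ (q.2.2.2 : ℤ) * L (G.rc s) := le_mul_of_one_le_left (hmem s hs).2.le (by omega)
        omega
      have hnorm : ∀ (t : F) (x : E), x ∈ liftSub f (T.erase c) → f c t * x * (f c t)⁻¹ ∈ liftSub f (T.erase c) :=
        fun t x hx => P.liftSub_normalizes hadd hc' (fun d hd =>
          ⟨hgood c hcT d (Finset.mem_of_mem_erase hd) (Finset.ne_of_mem_erase hd),
            hout c hcT d (Finset.mem_of_mem_erase hd)⟩) t hx
      have hdec : ∀ x ∈ liftSub f T, ∃ u ∈ liftSub f (T.erase c), ∃ t, x = u * f c t := by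
        intro x hx
        induction hx using Subgroup.closure_induction with
        | mem y hy =>
          obtain ⟨r, t, hr, rfl⟩ := hy
          by_cases hrc : r = c
          · exact ⟨1, one_mem _, t, by rw [hrc, one_mul]⟩
          · exact ⟨_, Subgroup.subset_closure ⟨r, t, Finset.mem_erase.2 ⟨hrc, hr⟩, rfl⟩, 0, by rw [f0, mul_one]⟩
        | one => exact ⟨1, one_mem _, 0, by rw [f0, mul_one]⟩
        | mul a b _ _ ha hb =>
          obtain ⟨u, hu, t, rfl⟩ := ha
          obtain ⟨v, hv, s, rfl⟩ := hb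
          exact ⟨u * (f c t * v * (f c t)⁻¹), mul_mem hu (hnorm t v hv), t + s, by rw [hadd c hc']; group⟩
        | inv a _ ha =>
          obtain ⟨u, hu, t, rfl⟩ := ha
          have hneg : f c (-t) = (f c t)⁻¹ := by rw [eq_inv_iff_mul_eq_one, ← hadd c hc', neg_add_cancel, f0]
          exact ⟨f c (-t) * u⁻¹ * (f c (-t))⁻¹, hnorm _ _ (inv_mem hu), -t, by rw [hneg]; group⟩
      obtain ⟨u, hu, t, rfl⟩ := hdec g hg
      have hpow : ∀ m : ℕ, ∃ u' ∈ liftSub f (T.erase c), (u * f c t) ^ m = u' * f c t ^ m := by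
        have hfn : ∀ (m : ℕ) (x : E), x ∈ liftSub f (T.erase c) → f c t ^ m * x * (f c t ^ m)⁻¹ ∈ liftSub f (T.erase c) := by
          intro m
          induction m with
          | zero => intro x hx; simpa using hx
          | succ m ihm => intro x hx; rw [pow_succ, show f c t ^ m * f c t * x * (f c t ^ m * f c t)⁻¹ =
              f c t ^ m * (f c t * x * (f c t)⁻¹) * (f c t ^ m)⁻¹ by group]; exact ihm _ (hnorm t x hx)
        intro m
        induction m with
        | zero => exact ⟨1, one_mem _, by simp⟩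
        | succ m ihm =>
          obtain ⟨u', hu', e⟩ := ihm
          exact ⟨u' * (f c t ^ m * u * (f c t ^ m)⁻¹), mul_mem hu' (hfn m u hu), by
            rw [pow_succ, e, pow_succ]; group⟩
      obtain ⟨u', hu', e⟩ := hpow p
      rw [hpf c hc', mul_one] at e
      obtain ⟨k, hk⟩ := ih _ (Finset.erase_ssubset hcT) ((Finset.erase_subset _ _).trans hTp)
        (fun r hr s hs => hout r (Finset.mem_of_mem_erase hr) s (Finset.mem_of_mem_erase hs))
        (fun r hr s hs => hgood r (Finset.mem_of_mem_erase hr) s (Finset.mem_of_mem_erase hs)) u' hu'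
      exact ⟨k + 1, by rw [pow_succ', pow_mul, e, hk]⟩
  have htf' : ∀ (k : ℕ) (z : E), ψ z = 1 → z ^ p ^ k = 1 → z = 1 := by
    intro k
    induction k with
    | zero => intro z _ h; simpa using h
    | succ k ihk =>
      intro z hz h
      rw [pow_succ, pow_mul] at h
      exact ihk z hz (htf _ (by rw [map_pow, hz, one_pow]) h)
  have main : ∀ (L : (Fin D.rank → ℤ) →ₗ[ℤ] ℤ) (n : ℕ) (r s : ℕ), r < D.nroots → s < D.nroots → s ≠ r →
      0 < L (G.rc r) → 0 < L (G.rc s) →
      (2 * (∑ d ∈ P.posSet L, L (G.rc d)) - (L (G.rc r) + L (G.rc s))).toNat < n → Good2 D f r s := by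
    intro L n
    induction n with
    | zero => intro r s _ _ _ _ _ h; omega
    | succ n ih =>
      intro r s hr hs hsr hLr hLs hn t u
      set m := L (G.rc r) + L (G.rc s) with hm
      set T := (P.posSet L).filter (fun d => d = s ∨ m ≤ L (G.rc d)) with hT
      have hTmem : ∀ d, d ∈ T ↔ d < D.nroots ∧ 0 < L (G.rc d) ∧ (d = s ∨ m ≤ L (G.rc d)) := fun d => by
        simp [hT, posSet, and_assoc]
      have hbound : ∀ d, d < D.nroots → 0 < L (G.rc d) → L (G.rc d) ≤ ∑ e ∈ P.posSet L, L (G.rc e) := by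
        intro d hd hpos
        refine Finset.single_le_sum (f := fun e => L (G.rc e)) (fun e he => ?_) (by simp [posSet, hd, hpos])
        simp only [posSet, Finset.mem_filter] at he
        exact he.2.le
      have hclosed : ∀ a ∈ T, ∀ b ∈ T, ∀ q ∈ D.commTerms a b, q.1 ∈ T := by
        intro a ha b hb q hq
        obtain ⟨ha1, ha2, ha3⟩ := (hTmem a).1 ha
        obtain ⟨hb1, hb2, hb3⟩ := (hTmem b).1 hb
        obtain ⟨h1, hi, hj, hL⟩ := P.L_comm L ha1 hb1 hq
        have e1 : L (G.rc a) ≤ (q.2.2.1 : ℤ) * L (G.rc a) := le_mul_of_one_le_left ha2.le (by omega)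
        have e2 : L (G.rc b) ≤ (q.2.2.2 : ℤ) * L (G.rc b) := le_mul_of_one_le_left hb2.le (by omega)
        refine (hTmem _).2 ⟨h1, by omega, ?_⟩
        rcases ha3 with has | ha3
        · rcases hb3 with hbs | hb3
          · have hab : b = a := hbs.trans has.symm
            have hnil : D.commTerms a a = [] := by
              simp [ChevalleyDatum.commTerms, ChevalleyDatum.chainRoot, G.chainEntry_eq ha1 ha1, G.ent_self ha1]
            rw [hab, hnil] at hq
            exact absurd hq List.not_mem_nil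
          · exact Or.inr (by omega)
        · exact Or.inr (by omega)
      have hgoodT : ∀ a ∈ T, ∀ b ∈ T, b ≠ a → Good2 D f a b := by
        intro a ha b hb hba
        obtain ⟨ha1, ha2, ha3⟩ := (hTmem a).1 ha
        obtain ⟨hb1, hb2, hb3⟩ := (hTmem b).1 hb
        refine ih a b ha1 hb1 hba ha2 hb2 ?_
        have := hbound a ha1 ha2
        have := hbound b hb1 hb2
        rcases ha3 with rfl | ha3 <;> rcases hb3 with rfl | hb3
        · exact absurd rfl hba
        all_goals omega
      set W := wordEval f (D.commWord F r s t u)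
      have hW : f s u * W ∈ liftSub f T := by
        refine mul_mem (Subgroup.subset_closure ⟨s, u, (hTmem s).2 ⟨hs, hLs, Or.inl rfl⟩, rfl⟩)
          (wordEval_mem_liftSub f fun q hq => ?_)
        simp only [ChevalleyDatum.commWord, List.mem_map] at hq
        obtain ⟨c, hc', rfl⟩ := hq
        obtain ⟨h1, hi, hj, hL⟩ := P.L_comm L hr hs hc'
        have e1 : L (G.rc r) ≤ (c.2.2.1 : ℤ) * L (G.rc r) := le_mul_of_one_le_left hLr.le (by omega)
        have e2 : L (G.rc s) ≤ (c.2.2.2 : ℤ) * L (G.rc s) := le_mul_of_one_le_left hLs.le (by omega)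
        exact (hTmem c.1).2 ⟨h1, by omega, Or.inr (by omega)⟩
      obtain ⟨k, hk⟩ := hexp L T (fun d hd => (Finset.mem_filter.1 hd).1) hclosed hgoodT _ hW
      set A := (f r t)⁻¹ * f s u * f r t with hA
      have hsne : s ≠ D.neg r := fun e => by rw [e, G.rc_neg hr, map_neg] at hLs; omega
      have hψ : ψ ((f s u * W)⁻¹ * A) = 1 := by
        have hψW : ψ W = ρ (wordEval P.X (D.commWord F r s t u)) := by
          have : ∀ l : List (ℕ × F), (∀ q ∈ l, q.1 < D.nroots) → ψ (wordEval f l) = ρ (wordEval P.X l) := by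
            intro l hl
            induction l with
            | nil => simp [wordEval]
            | cons q l ihl =>
              have ih' := ihl fun x hx => hl x (List.mem_cons_of_mem _ hx)
              simp only [wordEval, List.map_cons, List.prod_cons, map_mul] at ih' ⊢
              rw [ih', hψf _ (hl q List.mem_cons_self)]
          exact this _ (commWord_lt G hr hs t u)
        rw [hA, map_mul, map_inv, map_mul, map_mul, map_mul, map_inv, hψf r hr, hψf s hs, hψW, ← map_inv, ← map_mul,
          ← map_mul, ← map_mul, P.conj_X hr hs hsr hsne t u]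
        simp
      have hAp : A ^ p ^ (k + 1) = 1 := by
        rw [pow_succ', pow_mul, hA, show (f r t)⁻¹ * f s u * f r t = (f r t)⁻¹ * f s u * ((f r t)⁻¹)⁻¹ by rw [inv_inv],
          conj_pow, hpf s hs, mul_one, mul_inv_cancel, one_pow]
      have hB : (f s u * W) ^ p ^ (k + 1) = 1 := by rw [pow_succ, pow_mul, hk, one_pow]
      have e : A = f s u * W := by
        have e0 : A = f s u * W * ((f s u * W)⁻¹ * A) := by group
        have hz : ((f s u * W)⁻¹ * A) ^ p ^ (k + 1) = 1 := by
          rw [e0, ((hcz _ hψ (f s u * W)).symm).mul_pow, hB, one_mul] at hAp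
          exact hAp
        rw [e0, htf' _ _ hψ hz, mul_one]
      rw [hA, mul_assoc, inv_mul_eq_iff_eq_mul, ← mul_assoc] at e
      exact e
  intro r s hr hs hsr hsn
  obtain ⟨⟨L, hLr, hLs⟩, -⟩ := pairOK G hangle r hr s hs hsr hsn
  exact main L _ r s hr hs hsr hLr hLs (Nat.lt_succ_self _)

end Pres

open Matrix in
/-- Projective representations in the natural characteristic lift uniquely to the cover. -/
theorem existsUnique_projLift (hD : D ∈ [chevG2, chevB2, chevD4, chevF4, chevE6, chevE7, chevE8])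
    (hK : D ∈ [chevB2, chevG2] → ∃ x : F, x ≠ 0 ∧ x ≠ 1) {L : Type*} [Field L] (hL : ringChar L = ringChar F)
    {n : ℕ} (ρ : D.SteinbergCover F →* GL (Fin n) L ⧸ Subgroup.center (GL (Fin n) L)) :
    ∃! ψ : D.SteinbergCover F →* GL (Fin n) L, (QuotientGroup.mk' (Subgroup.center (GL (Fin n) L))).comp ψ = ρ := by
  set π := QuotientGroup.mk' (Subgroup.center (GL (Fin n) L))
  have hker : π.ker ≤ Subgroup.center (GL (Fin n) L) := (QuotientGroup.ker_mk' _).le
  by_cases hF : ∃ s : Finset F, 4 < s.card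
  · exact existsUnique_lift hD hF π (QuotientGroup.mk'_surjective _) hker ρ
  have : Finite F := by
    by_contra h
    rw [not_finite_iff_infinite] at h
    obtain ⟨s, hs⟩ := Infinite.exists_subset_card_eq F 5
    exact hF ⟨s, by omega⟩
  have : Fintype F := Fintype.ofFinite F
  obtain ⟨G⟩ := good_of_mem hD
  set P := coverPres G (F := F)
  have hperf : commutator (D.SteinbergCover F) = ⊤ := perfect_of_mem P hD hK
  set p := ringChar F with hp
  have hpp : p.Prime := CharP.char_is_prime F p
  have : Fact p.Prime := ⟨hpp⟩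
  have : CharP L p := hL ▸ (inferInstance : CharP L (ringChar L))
  have hscal : ∀ z : GL (Fin n) L, π z = 1 → ∃ c : Lˣ, z = Matrix.GeneralLinearGroup.scalar (Fin n) c := by
    intro z hz
    obtain ⟨c, hc⟩ := Matrix.GeneralLinearGroup.center_eq_range_scalar (n := Fin n) (R := L) ▸ hker hz
    exact ⟨c, hc.symm⟩
  have htf : ∀ z : GL (Fin n) L, π z = 1 → z ^ p = 1 → z = 1 := by
    intro z hz hzp
    rcases Nat.eq_zero_or_pos n with rfl | hn
    · exact Subsingleton.elim _ _
    obtain ⟨c, rfl⟩ := hscal z hz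
    rw [← map_pow] at hzp
    have h1 : (c : L) ^ p = 1 := by
      have := congrArg (fun g : GL (Fin n) L => (g : Matrix (Fin n) (Fin n) L) ⟨0, hn⟩ ⟨0, hn⟩) hzp
      simpa [Matrix.diagonal_pow] using this
    have h2 : ((c : L) - 1) ^ p = 0 := by rw [sub_pow_char, h1, one_pow, sub_self]
    rw [show c = 1 from Units.ext (sub_eq_zero.1 (eq_zero_of_pow_eq_zero h2)), map_one]
  have hex : ∀ r, r < D.nroots → ∀ t, ∃ y : GL (Fin n) L, π y = ρ (P.X r t) ∧ y ^ p = 1 := by
    intro r hr t
    rcases Nat.eq_zero_or_pos n with rfl | hn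
    · obtain ⟨y, hy⟩ := QuotientGroup.mk'_surjective _ (ρ (P.X r t))
      exact ⟨y, hy, Subsingleton.elim _ _⟩
    have hmem : ρ (P.X r t) ∈ (commutator (GL (Fin n) L)).map π := by
      have h1 : P.X r t ∈ commutator (D.SteinbergCover F) := by rw [hperf]; exact Subgroup.mem_top _
      rw [commutator_def, Subgroup.map_commutator, ← MonoidHom.range_eq_map,
        MonoidHom.range_eq_top.2 (QuotientGroup.mk'_surjective _), ← commutator_def]
      have h2 : (commutator (D.SteinbergCover F)).map ρ ≤ commutator _ := by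
        rw [commutator_def, Subgroup.map_commutator]
        exact Subgroup.commutator_mono le_top le_top
      exact h2 ⟨_, h1, rfl⟩
    obtain ⟨l, hl, hlρ⟩ := hmem
    have hdet : Matrix.GeneralLinearGroup.det l = 1 :=
      MonoidHom.mem_ker.1 (Abelianization.commutator_subset_ker Matrix.GeneralLinearGroup.det hl)
    have hlp : π (l ^ p) = 1 := by
      rw [map_pow, hlρ, ← map_pow]
      have hX : P.X r t ^ p = 1 := by
        have : ∀ k : ℕ, P.X r t ^ k = P.X r (k * t) := by
          intro k
          induction k with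
          | zero => simp [P.X_zero hr]
          | succ k ih => rw [pow_succ, ih, ← P.X_add r hr]; congr 1; push_cast; ring
        rw [this, CharP.cast_eq_zero, zero_mul, P.X_zero hr]
      rw [hX, map_one]
    obtain ⟨c, hc⟩ := hscal _ hlp
    have hcn : c ^ n = 1 := by
      apply Units.ext
      have := congrArg (fun g : GL (Fin n) L => ((Matrix.GeneralLinearGroup.det g : Lˣ) : L)) hc
      simp only [map_pow, hdet, one_pow, Units.val_one] at this
      rw [Units.val_pow_eq_pow_val, Units.val_one, this]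
      simp [Matrix.det_diagonal]
    have hord : (orderOf c).Coprime p := by
      refine ((Nat.Prime.coprime_iff_not_dvd hpp).2 fun hdvd => ?_).symm
      obtain ⟨e, he⟩ := hdvd
      have h1 : (c ^ e) ^ p = 1 := by rw [← pow_mul, mul_comm, ← he, pow_orderOf_eq_one]
      have h2 : (((c ^ e : Lˣ) : L) - 1) ^ p = 0 := by
        rw [sub_pow_char, ← Units.val_pow_eq_pow_val, h1, Units.val_one, one_pow, sub_self]
      have h3 : orderOf c ∣ e := orderOf_dvd_of_pow_eq_one (Units.ext (sub_eq_zero.1 (eq_zero_of_pow_eq_zero h2)))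
      have hpos : 0 < orderOf c := (isOfFinOrder_iff_pow_eq_one.2 ⟨n, hn, hcn⟩).orderOf_pos
      have he0 : 0 < e := Nat.pos_of_ne_zero fun h => by rw [h, mul_zero] at he; omega
      have := Nat.le_of_dvd he0 h3
      have := hpp.two_le
      nlinarith
    obtain ⟨d, hd⟩ := exists_pow_eq_self_of_coprime hord.symm
    refine ⟨l * (Matrix.GeneralLinearGroup.scalar (Fin n) (c ^ d))⁻¹, ?_, ?_⟩
    · have : π (Matrix.GeneralLinearGroup.scalar (Fin n) (c ^ d)) = 1 :=
        (QuotientGroup.eq_one_iff _).2 (Matrix.GeneralLinearGroup.center_eq_range_scalar (n := Fin n) (R := L) ▸ ⟨_, rfl⟩)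
      rw [map_mul, map_inv, this, inv_one, mul_one, hlρ]
    · have hsc : Matrix.GeneralLinearGroup.scalar (Fin n) (c ^ d) ∈ Subgroup.center (GL (Fin n) L) := by
        rw [Matrix.GeneralLinearGroup.center_eq_range_scalar]; exact ⟨_, rfl⟩
      have hcomm : Commute l (Matrix.GeneralLinearGroup.scalar (Fin n) (c ^ d))⁻¹ :=
        Commute.inv_right (Subgroup.mem_center_iff.1 hsc l)
      rw [hcomm.mul_pow, hc, ← map_inv, ← map_pow, ← map_mul, inv_pow, ← pow_mul, mul_comm d p, pow_mul, hd,
        mul_inv_cancel, map_one]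
  obtain ⟨f, hψf, hadd, hgood⟩ := P.exists_plifts (checks_of_mem hD).1 ρ π hker htf hex
  let φ : Fin D.nroots × F → GL (Fin n) L := fun q => f q.1.val q.2
  have hX : ∀ r, r < D.nroots → ∀ t : F, FreeGroup.lift φ (D.stX r t) = f r t := fun r hr t => by
    simp [ChevalleyDatum.stX, hr, φ]
  have hW : ∀ w : List (ℕ × F), (∀ q ∈ w, q.1 < D.nroots) → FreeGroup.lift φ (D.stWord w) = wordEval f w := by
    intro w hw
    induction w with
    | nil => simp [ChevalleyDatum.stWord, wordEval]
    | cons q w ih =>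
      have ih' := ih fun x hx => hw x (List.mem_cons_of_mem _ hx)
      simp only [ChevalleyDatum.stWord, wordEval, List.map_cons, List.prod_cons, map_mul] at ih' ⊢
      rw [ih', hX _ (hw q List.mem_cons_self)]
  have hrel : ∀ g ∈ D.steinbergRelsAB F, FreeGroup.lift φ g = 1 := by
    rintro g (⟨r, t, u, hr, rfl⟩ | ⟨r, s, t, u, hr, hs, h1, h2, rfl⟩)
    · simp only [map_mul, map_inv, hX r hr, hadd r hr, mul_inv_cancel]
    · simp only [map_mul, map_inv, hX r hr, hX s hs, hW _ (commWord_lt G hr hs t u)]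
      rw [mul_assoc (_ * _) (f s u) (f r t), hgood r s hr hs h1 h2 t u]
      group
  have heq : π.comp (PresentedGroup.toGroup hrel) = ρ := P.hom_ext fun r hr t => by
    rw [MonoidHom.comp_apply]
    show π (FreeGroup.lift φ (D.stX r t)) = _
    rw [hX r hr, hψf r hr]
  exact ⟨PresentedGroup.toGroup hrel, heq, fun g hg => hom_eq_of_perfect hperf hker (hg.trans heq.symm)⟩

end Cfsg.Agent.H70.Steinberg
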