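import Cfsg.Agent.H70.Steinberg.Perfect

/-!
# Torus scalers, and the geometry of a pair of roots
-/

set_option autoImplicit false

namespace Cfsg.Agent.H70.Steinberg

open Cfsg.Lie Cfsg.Agent.H46

variable {D : ChevalleyDatum} {F : Type*} [Field F]

/-- The character attached to a coweight `m`, as a function of the root. -/
def weight (D : ChevalleyDatum) (m : Fin D.rank → ℤ) (d : ℕ) : ℤ := ∑ k : Fin D.rank, m k * D.cartan k d

theorem weight_linear (G : Good D) (m : Fin D.rank → ℤ) {r s c : ℕ} (hr : r < D.nroots) (hs : s < D.nroots)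
    (hc : c < D.nroots) (i j : ℤ) (h : G.rc c = i • G.rc r + j • G.rc s) :
    weight D m c = i * weight D m r + j * weight D m s := by
  simp only [weight, Finset.mul_sum, ← Finset.sum_add_distrib]
  refine Finset.sum_congr rfl fun k _ => ?_
  rw [G.cartan_eq hc k.2, G.cartan_eq hr k.2, G.cartan_eq hs k.2, h, G.cartForm_add, G.cartForm_smul,
    G.cartForm_smul]
  ring

theorem weight_cor (G : Good D) {r d : ℕ} (hr : r < D.nroots) (hd : d < D.nroots) :
    weight D (fun k => G.tab.cor r k) d = D.pairing r d := by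
  rw [G.pairing_eq hr hd]
  exact Finset.sum_congr rfl fun k _ => by rw [G.cartan_eq hd k.2]

namespace Pres

variable {G : Good D} {Γ : Type*} [Group Γ] (P : Pres G F Γ) (hcert : Cert D)

include P hcert

/-- Every coweight has an element scaling all root groups by its character. -/
theorem exists_scaler (m : Fin D.rank → ℤ) {c : F} (hc : c ≠ 0) :
    ∃ h : Γ, ∀ d, d < D.nroots → ∀ t : F, h * P.X d t * h⁻¹ = P.X d (c ^ weight D m d * t) := by
  have : ∀ s : Finset (Fin D.rank), ∃ h : Γ, ∀ d, d < D.nroots → ∀ t : F,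
      h * P.X d t * h⁻¹ = P.X d (c ^ (∑ k ∈ s, m k * D.cartan k d) * t) := by
    intro s
    induction s using Finset.induction with
    | empty => exact ⟨1, fun d hd t => by simp⟩
    | insert k s hk ih =>
      obtain ⟨h, hh⟩ := ih
      refine ⟨P.H (D.simple k) (c ^ m k) * h, fun d hd t => ?_⟩
      rw [show P.H (D.simple k) (c ^ m k) * h * P.X d t * (P.H (D.simple k) (c ^ m k) * h)⁻¹ =
        P.H (D.simple k) (c ^ m k) * (h * P.X d t * h⁻¹) * (P.H (D.simple k) (c ^ m k))⁻¹ by group, hh d hd,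
        P.H_conj hcert k.2 (zpow_ne_zero _ hc) hd, Finset.sum_insert hk, ← zpow_mul, ← mul_assoc, ← zpow_add₀ hc]
  exact this Finset.univ

omit hcert in
/-- Two scalers commute up to the centre. -/
theorem commutator_scaler_mem_center {h k : Γ} {χ ψ : ℕ → F}
    (hh : ∀ d, d < D.nroots → ∀ t : F, h * P.X d t * h⁻¹ = P.X d (χ d * t))
    (hk : ∀ d, d < D.nroots → ∀ t : F, k * P.X d t * k⁻¹ = P.X d (ψ d * t)) :
    h⁻¹ * (k * h * k⁻¹) ∈ Subgroup.center Γ := by
  set z := h⁻¹ * (k * h * k⁻¹)
  have hX : ∀ r, r < D.nroots → ∀ t : F, (MulAut.conj z).toMonoidHom (P.X r t) = P.X r t := by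
    intro r hr t
    simp only [MulEquiv.coe_toMonoidHom, MulAut.conj_apply]
    have e : k * h * P.X r t * (k * h)⁻¹ = h * k * P.X r t * (h * k)⁻¹ := by
      rw [show k * h * P.X r t * (k * h)⁻¹ = k * (h * P.X r t * h⁻¹) * k⁻¹ by group,
        show h * k * P.X r t * (h * k)⁻¹ = h * (k * P.X r t * k⁻¹) * h⁻¹ by group, hh r hr, hk r hr, hk r hr, hh r hr]
      congr 1; ring
    have e2 : ∀ u, k * h * P.X r u * (k * h)⁻¹ = h * k * P.X r u * (h * k)⁻¹ := by
      intro u
      rw [show k * h * P.X r u * (k * h)⁻¹ = k * (h * P.X r u * h⁻¹) * k⁻¹ by group,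
        show h * k * P.X r u * (h * k)⁻¹ = h * (k * P.X r u * k⁻¹) * h⁻¹ by group, hh r hr, hk r hr, hk r hr, hh r hr]
      congr 1; ring
    -- `(hk)⁻¹(kh)` fixes every root element
    have e3 : (h * k)⁻¹ * (k * h) * P.X r t * ((h * k)⁻¹ * (k * h))⁻¹ = P.X r t := by
      rw [show (h * k)⁻¹ * (k * h) * P.X r t * ((h * k)⁻¹ * (k * h))⁻¹ =
        (h * k)⁻¹ * (k * h * P.X r t * (k * h)⁻¹) * (h * k) by group, e]
      group
    have hkz : z = k * ((h * k)⁻¹ * (k * h)) * k⁻¹ := by simp only [z]; group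
    by_cases hψ : ψ r = 0
    · have h0 := hk r hr t
      rw [hψ, zero_mul, P.X_zero hr] at h0
      have h1 : P.X r t = 1 := by
        rw [show P.X r t = k⁻¹ * (k * P.X r t * k⁻¹) * k by group, h0]; group
      rw [h1]; group
    · have h1 : k⁻¹ * P.X r t * k = P.X r ((ψ r)⁻¹ * t) := by
        have := hk r hr ((ψ r)⁻¹ * t)
        rw [mul_inv_cancel_left₀ hψ] at this
        rw [← this]; group
      have e4 : ∀ u, (h * k)⁻¹ * (k * h) * P.X r u * ((h * k)⁻¹ * (k * h))⁻¹ = P.X r u := by
        intro u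
        rw [show (h * k)⁻¹ * (k * h) * P.X r u * ((h * k)⁻¹ * (k * h))⁻¹ =
          (h * k)⁻¹ * (k * h * P.X r u * (k * h)⁻¹) * (h * k) by group, e2]
        group
      rw [hkz, show k * ((h * k)⁻¹ * (k * h)) * k⁻¹ * P.X r t * (k * ((h * k)⁻¹ * (k * h)) * k⁻¹)⁻¹ =
        k * ((h * k)⁻¹ * (k * h) * (k⁻¹ * P.X r t * k) * ((h * k)⁻¹ * (k * h))⁻¹) * k⁻¹ by group, h1, e4,
        hk r hr, mul_inv_cancel_left₀ hψ]
  have := P.hom_ext (f := (MulAut.conj z).toMonoidHom) (g := MonoidHom.id Γ) hX
  rw [Subgroup.mem_center_iff]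
  intro g
  have e := DFunLike.congr_fun this g
  simp only [MulEquiv.coe_toMonoidHom, MulAut.conj_apply, MonoidHom.id_apply] at e
  conv_lhs => rw [← e]
  group

end Pres

/-- For two roots with `s ≠ ±r`: a functional positive on both, and `⟨r,s⟩⟨s,r⟩ ∈ {0,1,2,3}`. -/
def PairOK (G : Good D) (r : ℕ) : Prop :=
  ∀ s, s < D.nroots → s ≠ r → s ≠ D.neg r →
    (∃ L : (Fin D.rank → ℤ) →ₗ[ℤ] ℤ, 0 < L (G.rc r) ∧ 0 < L (G.rc s)) ∧
      (0 ≤ D.pairing r s * D.pairing s r ∧ D.pairing r s * D.pairing s r ≤ 3 ∧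
        (D.pairing r s * D.pairing s r = 0 → D.pairing r s = 0))

/-- The check on fundamental roots. -/
def chkAngle (D : ChevalleyDatum) : Bool :=
  (List.range D.rank).all fun i => (List.range D.nroots).all fun s =>
    decide (s = D.simple i) || decide (s = D.neg (D.simple i)) ||
      (decide (0 ≤ D.pairing (D.simple i) s * D.pairing s (D.simple i)) &&
        (decide (D.pairing (D.simple i) s * D.pairing s (D.simple i) ≤ 3) &&
          decide (D.pairing (D.simple i) s * D.pairing s (D.simple i) = 0 → D.pairing (D.simple i) s = 0)))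

theorem pairOK (G : Good D) (hchk : chkAngle D = true) : ∀ r, r < D.nroots → PairOK G r := by
  have hsimple : ∀ i < D.rank, PairOK G (D.simple i) := by
    intro i hi s hs h1 h2
    have hp := G.simple_lt hi
    refine ⟨?_, ?_⟩
    · have hne : htOff i (G.rc s) ≠ 0 := by
        rcases G.isPosRoot_or_isNegRoot hs with hpos | hneg
        · exact (htOff_pos G hi hpos h1).ne'
        · have := htOff_pos G hi (G.isPosRoot_neg hneg) (fun e => h2 (by rw [← e, G.neg_neg hs]))
          rw [G.rc_neg hs, map_neg] at this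
          omega
      set v := pairForm G (D.simple i) (G.rc s) with hv
      refine ⟨((|v| + 1) * Int.sign (htOff i (G.rc s))) • htOff i + pairForm G (D.simple i), ?_, ?_⟩
      · simp [htOff_simple G hi, pairForm_rc G hp hp, G.pairing_self hp]
      · simp only [LinearMap.add_apply, LinearMap.smul_apply, smul_eq_mul, ← hv, mul_assoc, Int.sign_mul_self,
          Int.natCast_natAbs]
        have h1 : (1 : ℤ) ≤ |htOff i (G.rc s)| := Int.one_le_abs hne
        have h2 := neg_abs_le v
        have h3 : (|v| + 1) * 1 ≤ (|v| + 1) * |htOff i (G.rc s)| :=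
          mul_le_mul_of_nonneg_left h1 (by positivity)
        omega
    · simp only [chkAngle, List.all_eq_true, List.mem_range, Bool.or_eq_true, Bool.and_eq_true,
        decide_eq_true_eq] at hchk
      rcases hchk i hi s hs with (e | e) | e
      · exact absurd e h1
      · exact absurd e h2
      · exact e
  have step : ∀ i r, i < D.rank → r < D.nroots → PairOK G r → PairOK G (D.reflectRoot i r) := by
    intro i r hi hr h s hs h1 h2
    have hs' := G.reflectRoot_lt hi hs
    obtain ⟨⟨L, hLr, hLs⟩, hA⟩ := h _ hs'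
      (fun e => h1 (by rw [← G.reflectRoot_reflectRoot hi hs, e]))
      (fun e => h2 (by rw [← G.reflectRoot_neg hi hr, ← e, G.reflectRoot_reflectRoot hi hs]))
    have hR : ∀ a, a < D.nroots → G.reflLin ⟨i, hi⟩ (G.rc a) = G.rc (D.reflectRoot i a) := fun a ha => by
      rw [G.rc_reflect hi ha, G.cartan_eq ha hi]; rfl
    refine ⟨⟨L.comp (G.reflLin ⟨i, hi⟩).toLinearMap, ?_, ?_⟩, ?_⟩
    · simpa [hR _ (G.reflectRoot_lt hi hr), G.reflectRoot_reflectRoot hi hr] using hLr
    · simpa [hR _ hs] using hLs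
    · have e1 := G.pairing_reflect hi hr hs'
      have e2 := G.pairing_reflect hi hs' hr
      rw [G.reflectRoot_reflectRoot hi hs] at e1 e2
      rwa [e1, e2]
  have hpos : ∀ s, D.IsPosRoot s → PairOK G s ∧ PairOK G (D.neg s) := by
    refine G.pos_induction (P := fun s => PairOK G s ∧ PairOK G (D.neg s)) (fun i hi => ⟨hsimple i hi, ?_⟩)
      fun i s hi hs h => ⟨step i s hi hs.1 h.1, ?_⟩
    · have := step i _ hi (G.simple_lt hi) (hsimple i hi)
      rwa [G.reflectRoot_simple hi] at this
    · rw [← G.reflectRoot_neg hi hs.1]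
      exact step i _ hi (G.neg_lt hs.1) h.2
  intro r hr
  rcases G.isPosRoot_or_isNegRoot hr with h | h
  · exact (hpos r h).1
  · have := (hpos _ (G.isPosRoot_neg h)).2
    rwa [G.neg_neg hr] at this

/-- Every root pairs to `±1` with a fundamental coroot, or is twice a commutator of two roots commuting with it. -/
def chkSelf (D : ChevalleyDatum) : Bool :=
  (List.range D.nroots).all fun r =>
    ((List.range D.rank).any fun j => decide ((D.cartan j r).natAbs = 1) ||
        ((List.range D.rank).any fun k => decide ((D.cartan j r + D.cartan k r).natAbs = 1))) ||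
      ((List.range D.nroots).any fun a => (List.range D.nroots).any fun b =>
        decide (b ≠ a) && decide (b ≠ D.neg a) && decide (a ≠ r) && decide (a ≠ D.neg r) && decide (b ≠ r) &&
          decide (b ≠ D.neg r) && decide (D.commTerms r a = []) && decide (D.commTerms r b = []) &&
          (match D.commTerms a b with
            | [(c, v, 1, 1)] => decide (c = r) && decide (v.natAbs = 2)
            | _ => false))

theorem chkAngle_G2_B2_D4_F4 : chkAngle chevG2 = true ∧ chkAngle chevB2 = true ∧ chkAngle chevD4 = true ∧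
    chkAngle chevF4 = true := by decide +kernel

theorem chkAngle_E : chkAngle chevE6 = true ∧ chkAngle chevE7 = true ∧ chkAngle chevE8 = true := by decide +kernel

theorem chkSelf_G2_B2_D4_F4 : chkSelf chevG2 = true ∧ chkSelf chevB2 = true ∧ chkSelf chevD4 = true ∧
    chkSelf chevF4 = true := by decide +kernel

theorem chkSelf_E : chkSelf chevE6 = true ∧ chkSelf chevE7 = true ∧ chkSelf chevE8 = true := by decide +kernel

theorem checks_of_mem {D : ChevalleyDatum}
    (hD : D ∈ [chevG2, chevB2, chevD4, chevF4, chevE6, chevE7, chevE8]) : chkAngle D = true ∧ chkSelf D = true := by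
  simp only [List.mem_cons, List.not_mem_nil, or_false] at hD
  rcases hD with rfl | rfl | rfl | rfl | rfl | rfl | rfl
  exacts [⟨chkAngle_G2_B2_D4_F4.1, chkSelf_G2_B2_D4_F4.1⟩, ⟨chkAngle_G2_B2_D4_F4.2.1, chkSelf_G2_B2_D4_F4.2.1⟩,
    ⟨chkAngle_G2_B2_D4_F4.2.2.1, chkSelf_G2_B2_D4_F4.2.2.1⟩, ⟨chkAngle_G2_B2_D4_F4.2.2.2, chkSelf_G2_B2_D4_F4.2.2.2⟩,
    ⟨chkAngle_E.1, chkSelf_E.1⟩, ⟨chkAngle_E.2.1, chkSelf_E.2.1⟩, ⟨chkAngle_E.2.2, chkSelf_E.2.2⟩]

end Cfsg.Agent.H70.Steinberg
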