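import Cfsg.Agent.H70.Steinberg.Lifts

/-!
# Universality: a group with (R1), (R2) lifts into its central extensions (more than four field elements)
-/

set_option autoImplicit false

namespace Cfsg.Agent.H70.Steinberg

open Cfsg.Lie Cfsg.Agent.H46
open scoped commutatorElement

variable {D : ChevalleyDatum} {F : Type*} [Field F]

namespace Pres

variable {G : Good D} {Γ : Type*} [Group Γ] (P : Pres G F Γ) {E : Type*} [Group E]

omit [Field F] in
/-- The relation (R2) for an ordered pair in `E`. -/
def Good2 (D : ChevalleyDatum) [Field F] (f : ℕ → F → E) (a b : ℕ) : Prop :=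
  ∀ t u : F, f b u * f a t = f a t * f b u * wordEval f (D.commWord F a b t u)

/-- The subgroup generated by lifted root elements over a set. -/
def liftSub (f : ℕ → F → E) (T : Finset ℕ) : Subgroup E := Subgroup.closure {g | ∃ (r : ℕ) (t : F), r ∈ T ∧ g = f r t}

theorem wordEval_mem_liftSub (f : ℕ → F → E) {T : Finset ℕ} {w : List (ℕ × F)} (h : ∀ p ∈ w, p.1 ∈ T) :
    wordEval f w ∈ liftSub f T :=
  Subgroup.list_prod_mem _ (by
    intro g hg
    obtain ⟨p, hp, rfl⟩ := List.mem_map.1 hg
    exact Subgroup.subset_closure ⟨_, p.2, h p hp, rfl⟩)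

theorem map_wordEval (ψ : E →* Γ) (f : ℕ → F → E) (X : ℕ → F → Γ) :
    ∀ w : List (ℕ × F), (∀ p ∈ w, ψ (f p.1 p.2) = X p.1 p.2) → ψ (wordEval f w) = wordEval X w
  | [], _ => by simp [wordEval]
  | p :: w, h => by
    have ih := map_wordEval ψ f X w fun q hq => h q (List.mem_cons_of_mem _ hq)
    simp only [wordEval, List.map_cons, List.prod_cons, map_mul] at ih ⊢
    rw [ih, h p List.mem_cons_self]

include P

theorem liftSub_normalizes {f : ℕ → F → E} (hadd : ∀ r, r < D.nroots → ∀ t u, f r (t + u) = f r t * f r u)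
    {T : Finset ℕ} {c : ℕ} (hc : c < D.nroots)
    (h : ∀ d ∈ T, Good2 D f c d ∧ ∀ q ∈ D.commTerms c d, q.1 ∈ T) (t : F) {g : E} (hg : g ∈ liftSub f T) :
    f c t * g * (f c t)⁻¹ ∈ liftSub f T := by
  have h0 : f c 0 = 1 := by have := hadd c hc 0 0; rwa [add_zero, left_eq_mul] at this
  have hneg : ∀ v, f c (-v) = (f c v)⁻¹ := fun v => by
    rw [eq_inv_iff_mul_eq_one, ← hadd c hc, neg_add_cancel, h0]
  have key : ∀ s : F, ∀ x ∈ liftSub f T, (f c s)⁻¹ * x * f c s ∈ liftSub f T := by
    intro s x hx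
    have : liftSub f T ≤ (liftSub f T).comap (MulAut.conj (f c s)⁻¹).toMonoidHom := by
      refine (Subgroup.closure_le _).2 ?_
      rintro _ ⟨d, u, hd, rfl⟩
      obtain ⟨h1, h2⟩ := h d hd
      simp only [SetLike.mem_coe, Subgroup.mem_comap, MulEquiv.coe_toMonoidHom, MulAut.conj_apply, inv_inv]
      rw [mul_assoc, h1 s u, ← mul_assoc, ← mul_assoc, inv_mul_cancel, one_mul]
      refine mul_mem (Subgroup.subset_closure ⟨d, u, hd, rfl⟩) (wordEval_mem_liftSub f fun p hp => ?_)
      simp only [ChevalleyDatum.commWord, List.mem_map] at hp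
      obtain ⟨q, hq, rfl⟩ := hp
      exact h2 q hq
    simpa using this hx
  have := key (-t) g hg
  rwa [hneg, inv_inv] at this

theorem liftSub_eq_one (ψ : E →* Γ) {f : ℕ → F → E} (hψf : ∀ r, r < D.nroots → ∀ t, ψ (f r t) = P.X r t)
    (hadd : ∀ r, r < D.nroots → ∀ t u, f r (t + u) = f r t * f r u)
    (L : (Fin D.rank → ℤ) →ₗ[ℤ] ℤ) : ∀ T : Finset ℕ, T ⊆ P.posSet L →
    (∀ r ∈ T, ∀ s ∈ T, ∀ q ∈ D.commTerms r s, q.1 ∈ T) → (∀ r ∈ T, ∀ s ∈ T, s ≠ r → Good2 D f r s) →
    ∀ g ∈ liftSub f T, ψ g = 1 → g = 1 := by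
  intro T
  induction T using Finset.strongInduction with
  | H T ih =>
    intro hTp hcl hgood g hg hψ
    rcases T.eq_empty_or_nonempty with rfl | hne
    · simpa [liftSub] using hg
    obtain ⟨c, hcT, hmin⟩ := T.exists_min_image (fun r => L (G.rc r)) hne
    have hmem : ∀ r ∈ T, r < D.nroots ∧ 0 < L (G.rc r) := fun r hr => by simpa [posSet] using hTp hr
    obtain ⟨hc, hc0⟩ := hmem c hcT
    have f0 : f c 0 = 1 := by have := hadd c hc 0 0; rwa [add_zero, left_eq_mul] at this
    have hout : ∀ r ∈ T, ∀ s ∈ T, ∀ q ∈ D.commTerms r s, q.1 ∈ T.erase c := fun r hr s hs q hq => by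
      refine Finset.mem_erase.2 ⟨fun e => ?_, hcl r hr s hs q hq⟩
      obtain ⟨-, hi, hj, hL⟩ := P.L_comm L (hmem r hr).1 (hmem s hs).1 hq
      rw [e] at hL
      have := hmin r hr; have := hmin s hs
      have h1 : L (G.rc r) ≤ (q.2.2.1 : ℤ) * L (G.rc r) := le_mul_of_one_le_left (hmem r hr).2.le (by omega)
      have h2 : L (G.rc s) ≤ (q.2.2.2 : ℤ) * L (G.rc s) := le_mul_of_one_le_left (hmem s hs).2.le (by omega)
      omega
    have hnorm : ∀ (t : F) (x : E), x ∈ liftSub f (T.erase c) → f c t * x * (f c t)⁻¹ ∈ liftSub f (T.erase c) :=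
      fun t x hx => P.liftSub_normalizes hadd hc (fun d hd =>
        ⟨hgood c hcT d (Finset.mem_of_mem_erase hd) (Finset.ne_of_mem_erase hd),
          hout c hcT d (Finset.mem_of_mem_erase hd)⟩) t hx
    have hdec : ∀ x ∈ liftSub f T, ∃ u ∈ liftSub f (T.erase c), ∃ t, x = u * f c t := by
      intro x hx
      induction hx using Subgroup.closure_induction with
      | mem y hy =>
        obtain ⟨r, t, hr, rfl⟩ := hy
        by_cases hrc : r = c
        · exact ⟨1, one_mem _, t, by rw [hrc, one_mul]⟩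
        · exact ⟨_, Subgroup.subset_closure ⟨r, t, Finset.mem_erase.2 ⟨hrc, hr⟩, rfl⟩, 0, by rw [f0, mul_one]⟩
      | one => exact ⟨1, one_mem _, 0, by rw [f0, mul_one]⟩
      | mul a b _ _ ha hb =>
        obtain ⟨u, hu, t, rfl⟩ := ha
        obtain ⟨v, hv, s, rfl⟩ := hb
        exact ⟨u * (f c t * v * (f c t)⁻¹), mul_mem hu (hnorm t v hv), t + s, by rw [hadd c hc]; group⟩
      | inv a _ ha =>
        obtain ⟨u, hu, t, rfl⟩ := ha
        have hneg : f c (-t) = (f c t)⁻¹ := by rw [eq_inv_iff_mul_eq_one, ← hadd c hc, neg_add_cancel, f0]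
        exact ⟨f c (-t) * u⁻¹ * (f c (-t))⁻¹, hnorm _ _ (inv_mem hu), -t, by rw [hneg]; group⟩
    obtain ⟨u, hu, t, rfl⟩ := hdec g hg
    rw [map_mul, hψf c hc] at hψ
    have ht : t = 0 := by
      refine eq_zero_of_mem_closure G L hc hc0 ?_
      rw [← P.π_X c hc, eq_inv_of_mul_eq_one_right hψ, map_inv]
      refine inv_mem ?_
      have : (liftSub f (T.erase c)).map (P.π.comp ψ) ≤ Subgroup.closure
          {g : GL D.Idx F | ∃ (d : ℕ) (u : F), d < D.nroots ∧ d ≠ c ∧ L (G.rc c) ≤ L (G.rc d) ∧ g = G.xg d u} := by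
        rw [liftSub, MonoidHom.map_closure]
        refine Subgroup.closure_mono ?_
        rintro _ ⟨_, ⟨d, v, hd, rfl⟩, rfl⟩
        obtain ⟨hne', hd'⟩ := Finset.mem_erase.1 hd
        exact ⟨d, v, (hmem d hd').1, hne', hmin d hd', by
          rw [MonoidHom.comp_apply, hψf d (hmem d hd').1, P.π_X d (hmem d hd').1]⟩
      exact this ⟨u, hu, rfl⟩
    subst ht
    rw [P.X_zero hc, mul_one] at hψ
    rw [f0, mul_one]
    exact ih _ (Finset.erase_ssubset hcT) ((Finset.erase_subset _ _).trans hTp)
      (fun r hr s hs => hout r (Finset.mem_of_mem_erase hr) s (Finset.mem_of_mem_erase hs))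
      (fun r hr s hs => hgood r (Finset.mem_of_mem_erase hr) s (Finset.mem_of_mem_erase hs)) u hu hψ

variable (hcert : Cert D) (hF : ∃ s : Finset F, 4 < s.card) {ψ : E →* Γ} (C : CExt ψ)

include hcert hF C

/-- Every central extension of a perfect group with (R1), (R2) has lifts satisfying (R1), (R2). -/
theorem exists_lifts (hangle : chkAngle D = true) (hself : chkSelf D = true) :
    ∃ f : ℕ → F → E, (∀ r, r < D.nroots → ∀ t, ψ (f r t) = P.X r t) ∧
      (∀ r, r < D.nroots → ∀ t u, f r (t + u) = f r t * f r u) ∧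
      ∀ r s, r < D.nroots → s < D.nroots → s ≠ r → s ≠ D.neg r → Good2 D f r s := by
  obtain ⟨⟨c₀, hc0, hc2⟩, ⟨c₁, hc10, hc13⟩, -⟩ := exists_units hF
  choose h hh using fun r : ℕ => P.exists_scaler hcert (fun k => G.tab.cor r k) hc0
  have hhr : ∀ r, r < D.nroots → ∀ t, h r * P.X r t * (h r)⁻¹ = P.X r (c₀ ^ 2 * t) := by
    intro r hr t
    rw [hh r r hr, weight_cor G hr hr, G.pairing_self hr]
    norm_cast
  have hne : c₀ ^ 2 - 1 ≠ 0 := sub_ne_zero.2 hc2
  let f : ℕ → F → E := fun r t => ⁅C.lift (h r), C.lift (P.X r (t / (c₀ ^ 2 - 1)))⁆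
  have hψf : ∀ r, r < D.nroots → ∀ t, ψ (f r t) = P.X r t := by
    intro r hr t
    simp only [f]
    rw [map_commutatorElement, C.ψ_lift, C.ψ_lift, commutatorElement_def, hhr r hr, ← P.X_neg hr, ← P.X_add r hr]
    congr 1
    field_simp
    ring
  have hadd : ∀ r, r < D.nroots → ∀ t u, f r (t + u) = f r t * f r u := by
    intro r hr t u
    simp only [f]
    set a := t / (c₀ ^ 2 - 1)
    set b := u / (c₀ ^ 2 - 1)
    rw [C.bracket_congr (y' := C.lift (h r)) (w' := C.lift (P.X r a) * C.lift (P.X r b)) rfl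
      (by rw [map_mul, C.ψ_lift, C.ψ_lift, C.ψ_lift, ← P.X_add r hr, add_div])]
    have hcomm : Commute ⁅C.lift (h r), C.lift (P.X r b)⁆ (C.lift (P.X r a)) :=
      P.commute_same hcert hF C hself hr (t := u) (u := a) (hψf r hr u) (C.ψ_lift _)
    calc ⁅C.lift (h r), C.lift (P.X r a) * C.lift (P.X r b)⁆
        = ⁅C.lift (h r), C.lift (P.X r a)⁆ *
            (C.lift (P.X r a) * ⁅C.lift (h r), C.lift (P.X r b)⁆ * (C.lift (P.X r a))⁻¹) := by
          simp only [commutatorElement_def]; group
      _ = _ := by rw [← hcomm.eq, mul_inv_cancel_right]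
  refine ⟨f, hψf, hadd, ?_⟩
  -- equivariance under scalers
  have hequiv : ∀ (k : Γ) (χ : ℕ → F), (∀ d, d < D.nroots → ∀ t, k * P.X d t * k⁻¹ = P.X d (χ d * t)) →
      ∀ d, d < D.nroots → ∀ t, C.lift k * f d t * (C.lift k)⁻¹ = f d (χ d * t) := by
    intro k χ hk d hd t
    simp only [f]
    rw [show ∀ g y w : E, g * ⁅y, w⁆ * g⁻¹ = ⁅g * y * g⁻¹, g * w * g⁻¹⁆ from fun g y w => by
      simp only [commutatorElement_def]; group]
    set z := C.lift ((h d)⁻¹ * (k * h d * k⁻¹))
    have hz : ∀ w : E, Commute z w := fun w => C.commute_of_center (by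
      rw [C.ψ_lift]
      exact P.commutator_scaler_mem_center (χ := fun e => c₀ ^ weight D (fun m => G.tab.cor d m) e) (hh d) hk) w
    rw [C.bracket_congr (y' := C.lift (h d) * z) (w' := C.lift (P.X d (χ d * t / (c₀ ^ 2 - 1))))
      (by simp [z, C.ψ_lift]) (by simp [C.ψ_lift, hk d hd, mul_div_assoc])]
    set y := C.lift (h d)
    set w := C.lift (P.X d (χ d * t / (c₀ ^ 2 - 1)))
    calc ⁅y * z, w⁆ = y * (z * w) * z⁻¹ * y⁻¹ * w⁻¹ := by simp only [commutatorElement_def]; group
      _ = ⁅y, w⁆ := by rw [(hz w).eq, commutatorElement_def]; group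
  -- the commutator formula
  have main : ∀ (L : (Fin D.rank → ℤ) →ₗ[ℤ] ℤ) (n : ℕ) (r s : ℕ), r < D.nroots → s < D.nroots → s ≠ r →
      0 < L (G.rc r) → 0 < L (G.rc s) →
      (2 * (∑ d ∈ P.posSet L, L (G.rc d)) - (L (G.rc r) + L (G.rc s))).toNat < n → Good2 D f r s := by
    intro L n
    induction n with
    | zero => intro r s _ _ _ _ _ h; omega
    | succ n ih =>
      intro r s hr hs hsr hLr hLs hn
      set m := L (G.rc r) + L (G.rc s) with hm
      set T := (P.posSet L).filter (fun d => m ≤ L (G.rc d)) with hT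
      have hTmem : ∀ d, d ∈ T ↔ d < D.nroots ∧ 0 < L (G.rc d) ∧ m ≤ L (G.rc d) := fun d => by
        simp [hT, posSet, and_assoc]
      have hbound : ∀ d, d < D.nroots → 0 < L (G.rc d) → L (G.rc d) ≤ ∑ e ∈ P.posSet L, L (G.rc e) := by
        intro d hd hpos
        refine Finset.single_le_sum (f := fun e => L (G.rc e)) (fun e he => ?_) (by simp [posSet, hd, hpos])
        simp only [posSet, Finset.mem_filter] at he
        exact he.2.le
      have hrec : ∀ a b, a < D.nroots → b < D.nroots → b ≠ a → 0 < L (G.rc a) → 0 < L (G.rc b) →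
          m < L (G.rc a) + L (G.rc b) → Good2 D f a b := by
        intro a b ha hb hba hLa hLb hab
        refine ih a b ha hb hba hLa hLb ?_
        have := hbound a ha hLa
        have := hbound b hb hLb
        omega
      have hterms : ∀ q ∈ D.commTerms r s, q.1 ∈ T := by
        intro q hq
        obtain ⟨h1, hi, hj, hL⟩ := P.L_comm L hr hs hq
        have e1 : L (G.rc r) ≤ (q.2.2.1 : ℤ) * L (G.rc r) := le_mul_of_one_le_left hLr.le (by omega)
        have e2 : L (G.rc s) ≤ (q.2.2.2 : ℤ) * L (G.rc s) := le_mul_of_one_le_left hLs.le (by omega)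
        exact (hTmem _).2 ⟨h1, by omega, by omega⟩
      have hclosed : ∀ a ∈ T, ∀ b ∈ T, ∀ q ∈ D.commTerms a b, q.1 ∈ T := by
        intro a ha b hb q hq
        obtain ⟨ha1, ha2, ha3⟩ := (hTmem a).1 ha
        obtain ⟨hb1, hb2, hb3⟩ := (hTmem b).1 hb
        obtain ⟨h1, hi, hj, hL⟩ := P.L_comm L ha1 hb1 hq
        have e1 : L (G.rc a) ≤ (q.2.2.1 : ℤ) * L (G.rc a) := le_mul_of_one_le_left ha2.le (by omega)
        have e2 : L (G.rc b) ≤ (q.2.2.2 : ℤ) * L (G.rc b) := le_mul_of_one_le_left hb2.le (by omega)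
        exact (hTmem _).2 ⟨h1, by omega, by omega⟩
      have hnorm : ∀ (t : F) (g : E), g ∈ liftSub f T → f r t * g * (f r t)⁻¹ ∈ liftSub f T := by
        intro t g hg
        refine P.liftSub_normalizes hadd hr (fun d hd => ?_) t hg
        obtain ⟨hd1, hd2, hd3⟩ := (hTmem d).1 hd
        refine ⟨hrec r d hr hd1 (fun e => by subst e; omega) hLr hd2 (by omega), fun q hq => ?_⟩
        obtain ⟨h1, hi, hj, hL⟩ := P.L_comm L hr hd1 hq
        have e1 : L (G.rc r) ≤ (q.2.2.1 : ℤ) * L (G.rc r) := le_mul_of_one_le_left hLr.le (by omega)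
        have e2 : L (G.rc d) ≤ (q.2.2.2 : ℤ) * L (G.rc d) := le_mul_of_one_le_left hd2.le (by omega)
        exact (hTmem _).2 ⟨h1, by omega, by omega⟩
      have hinj : ∀ g ∈ liftSub f T, ψ g = 1 → g = 1 :=
        P.liftSub_eq_one ψ hψf hadd L T (fun d hd => (Finset.mem_filter.1 hd).1) hclosed (fun a ha b hb hba => by
          obtain ⟨ha1, ha2, ha3⟩ := (hTmem a).1 ha
          obtain ⟨hb1, hb2, hb3⟩ := (hTmem b).1 hb
          exact hrec a b ha1 hb1 hba ha2 hb2 (by omega))
      have hsne : s ≠ D.neg r := fun e => by rw [e, G.rc_neg hr, map_neg] at hLs; omega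
      set W : F → F → E := fun t u => wordEval f (D.commWord F r s t u) with hWdef
      have hWmem : ∀ t u, W t u ∈ liftSub f T := fun t u => wordEval_mem_liftSub f (fun p hp => by
        simp only [ChevalleyDatum.commWord, List.mem_map] at hp
        obtain ⟨q, hq, rfl⟩ := hp
        exact hterms q hq)
      set z : F → F → E := fun t u => (W t u)⁻¹ * ((f s u)⁻¹ * ((f r t)⁻¹ * f s u * f r t)) with hzdef
      have hconj : ∀ t u, (f r t)⁻¹ * f s u * f r t = f s u * W t u * z t u := fun t u => by
        simp only [hzdef]; group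
      have hψz : ∀ t u, ψ (z t u) = 1 := by
        intro t u
        have hW : ψ (W t u) = wordEval P.X (D.commWord F r s t u) := map_wordEval ψ f P.X _ fun p hp => by
          simp only [ChevalleyDatum.commWord, List.mem_map] at hp
          obtain ⟨q, hq, rfl⟩ := hp
          exact hψf _ (P.L_comm L hr hs hq).1 _
        simp only [hzdef, map_mul, map_inv, hψf r hr, hψf s hs, hW]
        rw [P.conj_X hr hs hsr hsne]
        group
      have hzadd : ∀ t t' u, z (t + t') u = z t u * z t' u := by
        intro t t' u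
        have hc1 := C.ker_commute (hψz t u)
        set W' := (f r t')⁻¹ * W t u * f r t' with hW'
        have hW'mem : W' ∈ liftSub f T := by
          have := hnorm (-t') (W t u) (hWmem t u)
          have hneg : f r (-t') = (f r t')⁻¹ := by
            have h0 : f r 0 = 1 := by have := hadd r hr 0 0; rwa [add_zero, left_eq_mul] at this
            rw [eq_inv_iff_mul_eq_one, ← hadd r hr, neg_add_cancel, h0]
          rwa [hneg, inv_inv] at this
        have e1 : f s u * W (t + t') u * z (t + t') u = f s u * W t' u * z t' u * W' * z t u := by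
          calc f s u * W (t + t') u * z (t + t') u = (f r t')⁻¹ * ((f r t)⁻¹ * f s u * f r t) * f r t' := by
                rw [← hconj, hadd r hr]; group
            _ = ((f r t')⁻¹ * f s u * f r t') * W' * ((f r t')⁻¹ * z t u * f r t') := by rw [hconj, hW']; group
            _ = _ := by
                rw [hconj, mul_assoc (f r t')⁻¹ (z t u), (hc1 (f r t')).eq, inv_mul_cancel_left]
        have e2 : W (t + t') u = W t' u * W' := by
          refine mul_inv_eq_one.1 (hinj _ (mul_mem (hWmem _ _) (inv_mem (mul_mem (hWmem _ _) hW'mem))) ?_)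
          have := congrArg ψ e1
          simp only [map_mul, hψz, mul_one] at this
          rw [map_mul, map_inv, map_mul, mul_inv_eq_one]
          have h2 := mul_left_cancel (a := ψ (f s u)) (show ψ (f s u) * ψ (W (t + t') u) = ψ (f s u) * (ψ (W t' u) * ψ W') by
            rw [this, mul_assoc])
          exact h2
        rw [e2] at e1
        rw [(C.ker_commute (hψz t u) (z t' u)).eq]
        refine mul_left_cancel (a := f s u * (W t' u * W')) (e1.trans ?_)
        rw [mul_assoc (f s u * W t' u) (z t' u) W', (C.ker_commute (hψz t' u) W').eq]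
        group
      have hzscale : ∀ (k : Γ) (χ : ℕ → F), (∀ d, d < D.nroots → ∀ t, k * P.X d t * k⁻¹ = P.X d (χ d * t)) →
          (∀ q ∈ D.commTerms r s, χ q.1 = χ r ^ q.2.2.1 * χ s ^ q.2.2.2) →
          ∀ t u, z (χ r * t) (χ s * u) = z t u := by
        intro k χ hk hχ t u
        set K := C.lift k
        have hW : K * W t u * K⁻¹ = W (χ r * t) (χ s * u) := by
          simp only [hWdef, wordEval, ChevalleyDatum.commWord, List.map_map]
          have : ∀ l : List (ℕ × ℤ × ℕ × ℕ), (∀ q ∈ l, q ∈ D.commTerms r s) →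
              K * (l.map ((fun p => f p.1 p.2) ∘ fun c => (c.1, (c.2.1 : F) * (-t) ^ c.2.2.1 * u ^ c.2.2.2))).prod * K⁻¹ =
              (l.map ((fun p => f p.1 p.2) ∘
                fun c => (c.1, (c.2.1 : F) * (-(χ r * t)) ^ c.2.2.1 * (χ s * u) ^ c.2.2.2))).prod := by
            intro l hl
            induction l with
            | nil => simp
            | cons q l ihl =>
              have hq := hl q List.mem_cons_self
              rw [List.map_cons, List.prod_cons, List.map_cons, List.prod_cons, ← ihl (fun x hx => hl x (List.mem_cons_of_mem _ hx))]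
              have e := hequiv k χ hk q.1 (P.L_comm L hr hs hq).1 ((q.2.1 : F) * (-t) ^ q.2.2.1 * u ^ q.2.2.2)
              rw [hχ q hq] at e
              simp only [Function.comp_apply]
              rw [show (q.2.1 : F) * (-(χ r * t)) ^ q.2.2.1 * (χ s * u) ^ q.2.2.2 =
                χ r ^ q.2.2.1 * χ s ^ q.2.2.2 * ((q.2.1 : F) * (-t) ^ q.2.2.1 * u ^ q.2.2.2) by
                rw [← mul_neg, mul_pow, mul_pow]; ring, ← e]
              simp only [K]
              group
          exact this _ fun q hq => hq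
        have e : z (χ r * t) (χ s * u) = K * z t u * K⁻¹ := by
          simp only [hzdef]
          rw [← hequiv k χ hk r hr t, ← hequiv k χ hk s hs u, ← hW]
          simp only [K]
          group
        rw [e, ← (C.ker_commute (hψz t u) K).eq, mul_inv_cancel_right]
      obtain ⟨-, hAB0, hAB3, hAB⟩ := pairOK G hangle r hr s hs hsr hsne
      have kill : ∀ (a : F), a ≠ 1 → (∀ t u, z (a * t) u = z t u) → ∀ t u, z t u = 1 := by
        intro a ha1 h t u
        have := hzadd ((a - 1) * (t / (a - 1))) (t / (a - 1)) u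
        rw [show (a - 1) * (t / (a - 1)) + t / (a - 1) = a * (t / (a - 1)) by ring, h,
          mul_div_cancel₀ _ (sub_ne_zero.2 ha1), right_eq_mul] at this
        exact this
      have scaled : ∀ (mm : Fin D.rank → ℤ) (c : F), c ≠ 0 → weight D mm s = 0 → ∀ t u, z (c ^ weight D mm r * t) u = z t u := by
        intro mm c hc hws t u
        obtain ⟨k, hk⟩ := P.exists_scaler hcert mm hc
        have := hzscale k (fun d => c ^ weight D mm d) hk (fun q hq => by
          obtain ⟨h1, -, -, h4⟩ := G.commTerms_spec hr hs hq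
          rw [weight_linear G mm hr hs h1 _ _ h4, zpow_add₀ hc, mul_comm (q.2.2.1 : ℤ), zpow_mul,
            mul_comm (q.2.2.2 : ℤ), zpow_mul, zpow_natCast, zpow_natCast]) t u
        simpa [hws] using this
      have hz1 : ∀ t u, z t u = 1 := by
        by_cases hk0 : D.pairing r s = 0
        · have h := scaled (fun k => G.tab.cor r k) c₀ hc0 (by rw [weight_cor G hr hs, hk0])
          rw [weight_cor G hr hr, G.pairing_self hr] at h
          exact kill (c₀ ^ (2 : ℤ)) (by exact_mod_cast hc2) h
        · have hpos : D.pairing r s * D.pairing s r ≠ 0 := fun e => hk0 (hAB e)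
          set mm : Fin D.rank → ℤ := fun k => 2 * G.tab.cor r k - D.pairing r s * G.tab.cor s k with hmm
          have hw : ∀ d, d < D.nroots → weight D mm d = 2 * D.pairing r d - D.pairing r s * D.pairing s d := by
            intro d hd
            rw [← weight_cor G hr hd, ← weight_cor G hs hd]
            simp only [weight, hmm, Finset.mul_sum, ← Finset.sum_sub_distrib]
            exact Finset.sum_congr rfl fun k _ => by ring
          have hws : weight D mm s = 0 := by rw [hw s hs, G.pairing_self hs]; ring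
          have hwr : weight D mm r = 4 - D.pairing r s * D.pairing s r := by rw [hw r hr, G.pairing_self hr]; ring
          obtain e | e | e : D.pairing r s * D.pairing s r = 1 ∨ D.pairing r s * D.pairing s r = 2 ∨
              D.pairing r s * D.pairing s r = 3 := by omega
          · have h := scaled mm c₁ hc10 hws
            rw [hwr, e, show (4 : ℤ) - 1 = 3 by norm_num] at h
            exact kill (c₁ ^ (3 : ℤ)) (by exact_mod_cast hc13) h
          · have h := scaled mm c₀ hc0 hws
            rw [hwr, e, show (4 : ℤ) - 2 = 2 by norm_num] at h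
            exact kill (c₀ ^ (2 : ℤ)) (by exact_mod_cast hc2) h
          · have h := scaled mm c₁ hc10 hws
            rw [hwr, e, show (4 : ℤ) - 3 = 1 by norm_num] at h
            exact kill (c₁ ^ (1 : ℤ)) (fun h1 => hc13 (by rw [zpow_one] at h1; rw [h1, one_pow])) h
      intro t u
      have := hconj t u
      rw [hz1, mul_one, mul_assoc, inv_mul_eq_iff_eq_mul] at this
      rw [this, ← mul_assoc]
  intro r s hr hs hsr hsn
  obtain ⟨⟨L, hLr, hLs⟩, -⟩ := pairOK G hangle r hr s hs hsr hsn
  exact main L _ r s hr hs hsr hLr hLs (Nat.lt_succ_self _)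

end Pres

end Cfsg.Agent.H70.Steinberg
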